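import Cfsg.Agent.Lib.IntFn
import Cfsg.Agent.Lib.CharCyclo
import Cfsg.Agent.Lib.Block.Osima
import Mathlib.LinearAlgebra.Projection
import Mathlib.LinearAlgebra.BilinearForm.Orthogonal
import Mathlib.Analysis.SpecialFunctions.Complex.CircleAddChar
import Mathlib.Analysis.Complex.Polynomial.Basic
import Mathlib.LinearAlgebra.Dual.Lemmas

/-!
# The functions `η` of the real-vector criterion

For a group acting on a finite vector space over `ZMod p` we look for a class function `η` with
`|η h|² = [U : C_U(h)]`, with integral coefficients up to a power of `p`, congruent to zero at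
elements acting nontrivially.  Here: the definition and the Gauss sum construction.
-/

set_option autoImplicit false

open scoped ComplexConjugate

namespace Cfsg.Agent.Lib.KGV

open Cfsg Cfsg.Agent.Lib Cfsg.Agent.Lib.Char Cfsg.Agent.Lib.CharCyclo Cfsg.Agent.Lib.IntClass

universe u v w

variable {p : ℕ} [Fact p.Prime] {H : Type u} [Group H] [Fintype H] {U : Type v} [AddCommGroup U]
  [Module (ZMod p) U] [Finite U]

/-- The fixed space. -/
noncomputable def fix (ρ : Representation (ZMod p) H U) (h : H) : Submodule (ZMod p) U :=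
  LinearMap.ker (ρ h - 1)

omit [Fintype H] [Finite U] in
theorem mem_fix {ρ : Representation (ZMod p) H U} {h : H} {x : U} : x ∈ fix ρ h ↔ ρ h x = x := by
  simp [fix, sub_eq_zero]

omit [Fintype H] [Finite U] in
theorem rep_inv_apply (ρ : Representation (ZMod p) H U) (h : H) (x : U) : ρ h⁻¹ (ρ h x) = x := by
  rw [← Module.End.mul_apply, ← map_mul, inv_mul_cancel, map_one]; rfl

omit [Fintype H] [Finite U] in
theorem rep_apply_inv (ρ : Representation (ZMod p) H U) (h : H) (x : U) : ρ h (ρ h⁻¹ x) = x := by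
  rw [← Module.End.mul_apply, ← map_mul, mul_inv_cancel, map_one]; rfl

/-- The number of fixed points. -/
noncomputable def cfix (ρ : Representation (ZMod p) H U) (h : H) : ℕ := Nat.card (fix ρ h)

omit [Fintype H] in
theorem cfix_pos (ρ : Representation (ZMod p) H U) (h : H) : 0 < cfix ρ h := Nat.card_pos

omit [Fintype H] [Finite U] in
theorem cfix_ne_zero [Finite U] (ρ : Representation (ZMod p) H U) (h : H) : (cfix ρ h : ℂ) ≠ 0 :=
  Nat.cast_ne_zero.2 (cfix_pos ρ h).ne'

/-- The data of the criterion. -/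
def HasEta (ρ : Representation (ZMod p) H U) : Prop :=
  ∃ (K : ℕ) (η : H → ℂ), IntFn (((p : ℂ) ^ K) • η) ∧
    (∀ h, η h * conj (η h) * (cfix ρ h : ℂ) = (Nat.card U : ℂ)) ∧
    (∀ h, IsIntegral ℤ (η h)) ∧ (∀ h, Fixed (p * Nat.card H) (η h)) ∧ η 1 = 1 ∧
    ∀ h, ρ h ≠ 1 → ∀ (M : Ideal AlgInt) [M.IsPrime], IsPModular p M → Block.redC M (η h) = 0

theorem fixed_mono {d N : ℕ} (hd : d ∣ N) {t : ℂ} (ht : Fixed d t) : Fixed N t := fun σ hσ =>
  ht σ fun μ hμ => hσ μ (by obtain ⟨c, rfl⟩ := hd; rw [pow_mul, hμ, one_pow])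

omit [Fintype H] in
/-- The fixed point count is a power of `p`. -/
theorem exists_cfix_eq (ρ : Representation (ZMod p) H U) (h : H) :
    ∃ i ≤ Module.finrank (ZMod p) U, cfix ρ h = p ^ i := by
  refine ⟨Module.finrank (ZMod p) (fix ρ h), Submodule.finrank_le _, ?_⟩
  rw [cfix, Module.natCard_eq_pow_finrank (K := ZMod p), Nat.card_zmod]

/-- The permutation matrices. -/
noncomputable def permHom (ρ : Representation (ZMod p) H U) [DecidableEq U] [Fintype U] :
    H →* Matrix U U ℂ where
  toFun h := Matrix.of fun x y => if x = ρ h y then 1 else 0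
  map_one' := by
    ext x y
    simp [Matrix.one_apply]
  map_mul' a b := by
    ext x y
    simp [Matrix.mul_apply, map_mul]

omit [Fintype H] [Finite U] in
theorem permHom_mul_apply (ρ : Representation (ZMod p) H U) [DecidableEq U] [Fintype U]
    (h : H) (A : Matrix U U ℂ) (x y : U) : (permHom ρ h * A) x y = A (ρ h⁻¹ x) y := by
  rw [Matrix.mul_apply, Finset.sum_eq_single (ρ h⁻¹ x)]
  · simp [permHom]
  · intro z _ hz
    have : x ≠ ρ h z := fun e => hz (by rw [e, rep_inv_apply])
    simp [permHom, this]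
  · simp

omit [Fintype H] [Finite U] in
theorem mul_permHom_apply (ρ : Representation (ZMod p) H U) [DecidableEq U] [Fintype U]
    (h : H) (A : Matrix U U ℂ) (x y : U) : (A * permHom ρ h) x y = A x (ρ h y) := by
  rw [Matrix.mul_apply, Finset.sum_eq_single (ρ h y)]
  · simp [permHom]
  · intro z _ hz
    simp [permHom, hz]
  · simp

theorem intFn_cfix (ρ : Representation (ZMod p) H U) : IntFn (fun h => (cfix ρ h : ℂ)) := by
  classical
  have := Fintype.ofFinite U
  have h1 := intFn_trace (permHom ρ) (A := 1) isIntegral_one (fun h => by simp)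
  convert h1 using 1
  funext h
  simp only [Matrix.mul_one, Matrix.trace, Matrix.diag_apply, permHom, MonoidHom.coe_mk,
    OneHom.coe_mk, Matrix.of_apply, Finset.sum_boole, cfix, Nat.card_eq_fintype_card,
    Fintype.card_subtype, mem_fix]
  congr 2
  ext x
  simp [eq_comm]

/-- Division by the fixed point count only costs a power of `p`. -/
theorem exists_pow_intFn (ρ : Representation (ZMod p) H U) {η : H → ℂ}
    (h : IntFn (fun x => (cfix ρ x : ℂ) * η x)) : ∃ K : ℕ, IntFn (((p : ℂ) ^ K) • η) := by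
  classical
  have hind : ∀ k : ℕ, ∃ Q : H → ℂ, IntFn Q ∧ ∀ x,
      ∏ i ∈ Finset.range k, ((cfix ρ x : ℂ) - (p : ℂ) ^ i) =
        (cfix ρ x : ℂ) * Q x + (-1) ^ k * (p : ℂ) ^ (∑ i ∈ Finset.range k, i) := by
    intro k
    induction k with
    | zero => exact ⟨fun _ => 0, IntFn.const isIntegral_zero, fun x => by simp⟩
    | succ k ih =>
      obtain ⟨Q, hQ, hval⟩ := ih
      refine ⟨((fun x => (cfix ρ x : ℂ)) + (fun _ => -(p : ℂ) ^ k)) * Q +
        fun _ => (-1) ^ k * (p : ℂ) ^ (∑ i ∈ Finset.range k, i),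
        (((intFn_cfix ρ).add (IntFn.const ((isIntegral_natCast p).pow k).neg)).mul hQ).add
          (IntFn.const ((isIntegral_one.neg.pow k).mul ((isIntegral_natCast p).pow _))), fun x => ?_⟩
      rw [Finset.prod_range_succ, hval x, Finset.sum_range_succ, pow_add, pow_succ]
      simp only [Pi.add_apply, Pi.mul_apply]
      ring
  set N := Module.finrank (ZMod p) U + 1 with hN
  obtain ⟨Q, hQ, hval⟩ := hind N
  refine ⟨∑ i ∈ Finset.range N, i, ?_⟩
  have e : ((p : ℂ) ^ (∑ i ∈ Finset.range N, i)) • η =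
      ((-1 : ℂ) * (-1) ^ N) • ((fun x => (cfix ρ x : ℂ) * η x) * Q) := by
    funext x
    obtain ⟨i, hi, hc⟩ := exists_cfix_eq ρ x
    have h0 := hval x
    rw [Finset.prod_eq_zero (i := i) (Finset.mem_range.2 (by omega))
      (by rw [hc, Nat.cast_pow, sub_self])] at h0
    simp only [Pi.smul_apply, Pi.mul_apply, smul_eq_mul]
    have hsq : ((-1 : ℂ) ^ N) * (-1) ^ N = 1 := by rw [← mul_pow]; norm_num
    linear_combination ((p : ℂ) ^ (∑ i ∈ Finset.range N, i) * η x) * hsq.symm +
      ((-1 : ℂ) ^ N * η x) * h0.symm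
  rw [e]
  exact (h.mul hQ).smul (isIntegral_one.neg.mul (isIntegral_one.neg.pow N))

omit [Fact p.Prime] in
theorem natCast_p_ne_zero [Fact p.Prime] : (p : ℂ) ≠ 0 :=
  Nat.cast_ne_zero.2 (Fact.out : p.Prime).ne_zero

omit [Finite U] in
/-- The product over a direct decomposition. -/
theorem HasEta.prod {P Q : Type v} [AddCommGroup P] [Module (ZMod p) P] [Finite P] [AddCommGroup Q]
    [Module (ZMod p) Q] [Finite Q] {σ : Representation (ZMod p) H P} {τ : Representation (ZMod p) H Q}
    {ρ : Representation (ZMod p) H U} (e : (P × Q) ≃ₗ[ZMod p] U)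
    (he : ∀ h x, ρ h (e x) = e (σ h x.1, τ h x.2)) (h1 : HasEta σ) (h2 : HasEta τ) : HasEta ρ := by
  obtain ⟨K₁, η₁, hI₁, hn₁, hi₁, hf₁, ho₁, hz₁⟩ := h1
  obtain ⟨K₂, η₂, hI₂, hn₂, hi₂, hf₂, ho₂, hz₂⟩ := h2
  have hcard : ∀ h, cfix ρ h = cfix σ h * cfix τ h := by
    intro h
    rw [cfix, cfix, cfix, ← Nat.card_prod]
    refine Nat.card_congr (Equiv.symm ?_)
    exact
      { toFun := fun z => ⟨e (z.1.1, z.2.1), mem_fix.2 (by
          rw [he, mem_fix.1 z.1.2, mem_fix.1 z.2.2])⟩
        invFun := fun x =>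
          (⟨(e.symm x.1).1, mem_fix.2 (by
              have h3 := he h (e.symm x.1)
              rw [e.apply_symm_apply, mem_fix.1 x.2] at h3
              conv_rhs => rw [h3, e.symm_apply_apply])⟩,
            ⟨(e.symm x.1).2, mem_fix.2 (by
              have h3 := he h (e.symm x.1)
              rw [e.apply_symm_apply, mem_fix.1 x.2] at h3
              conv_rhs => rw [h3, e.symm_apply_apply])⟩)
        left_inv := fun z => by simp
        right_inv := fun x => Subtype.ext (by simp) }
  refine ⟨K₁ + K₂, η₁ * η₂, ?_, fun h => ?_, fun h => (hi₁ h).mul (hi₂ h),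
    fun h => (hf₁ h).mul (hf₂ h), by rw [Pi.mul_apply, ho₁, ho₂, mul_one], ?_⟩
  · rw [pow_add, ← smul_mul_smul_comm]
    exact hI₁.mul hI₂
  · rw [hcard, Nat.cast_mul, ← Nat.card_congr e.toEquiv, Nat.card_prod, Nat.cast_mul, ← hn₁ h, ← hn₂ h,
      Pi.mul_apply, map_mul]
    ring
  · intro h hne M _ hM
    rw [Pi.mul_apply, Block.redC_mul (Block.integral_mem_locRing (hi₁ h)) (Block.integral_mem_locRing (hi₂ h))]
    by_cases hσ : σ h = 1
    · have hτ : τ h ≠ 1 := fun hτ => hne (LinearMap.ext fun x => by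
        obtain ⟨z, rfl⟩ := e.surjective x
        rw [he, hσ, hτ]; rfl)
      rw [hz₂ h hτ M hM, mul_zero]
    · rw [hz₁ h hσ M hM, zero_mul]

/-! ### Gauss sums -/

theorem stdAddChar_fixed (a : ZMod p) : Fixed p (ZMod.stdAddChar a) := fun σ hσ => hσ _ (by
  rw [← AddChar.map_nsmul_eq_pow, nsmul_eq_mul, ZMod.natCast_self, zero_mul, AddChar.map_zero_eq_one])

theorem stdAddChar_isIntegral (a : ZMod p) : IsIntegral ℤ (ZMod.stdAddChar a) :=
  IsIntegral.of_pow (Fact.out : p.Prime).pos (by
    rw [← AddChar.map_nsmul_eq_pow, nsmul_eq_mul, ZMod.natCast_self, zero_mul, AddChar.map_zero_eq_one]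
    exact isIntegral_one)

theorem stdAddChar_mem_adjoin (a : ZMod p) :
    ZMod.stdAddChar a ∈ Algebra.adjoin ℤ ({ZMod.stdAddChar (1 : ZMod p)} : Set ℂ) := by
  have : a = (a.val : ℕ) • (1 : ZMod p) := by rw [nsmul_eq_mul, mul_one, ZMod.natCast_zmod_val]
  rw [this, AddChar.map_nsmul_eq_pow]
  exact pow_mem (Algebra.subset_adjoin (Set.mem_singleton _)) _

theorem conj_stdAddChar (a : ZMod p) : conj (ZMod.stdAddChar a) = ZMod.stdAddChar (-a) := by
  rw [AddChar.map_neg_eq_conj]

omit [Finite U] in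
open scoped Classical in
/-- A linear functional summed against the standard character. -/
theorem sum_stdAddChar_linear [Fintype U] (φ : U →ₗ[ZMod p] ZMod p) :
    ∑ u, ZMod.stdAddChar (φ u) = if φ = 0 then (Fintype.card U : ℂ) else 0 := by
  classical
  let ψ : AddChar U ℂ :=
    { toFun := fun u => ZMod.stdAddChar (φ u)
      map_zero_eq_one' := by rw [map_zero, AddChar.map_zero_eq_one]
      map_add_eq_mul' := fun a b => by rw [map_add, AddChar.map_add_eq_mul] }
  have h := AddChar.sum_eq_ite ψ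
  show ∑ u, ψ u = _
  rw [h]
  refine if_congr ⟨fun h0 => ?_, fun h0 => ?_⟩ rfl rfl
  · refine LinearMap.ext fun u => ?_
    have h1 : ZMod.stdAddChar (φ u) = 1 := DFunLike.congr_fun h0 u
    exact ZMod.injective_stdAddChar (by rw [h1, LinearMap.zero_apply, AddChar.map_zero_eq_one])
  · refine DFunLike.ext _ _ fun u => ?_
    show ZMod.stdAddChar (φ u) = 1
    rw [h0, LinearMap.zero_apply, AddChar.map_zero_eq_one]

/-- The Gauss sum construction. -/
theorem hasEta_gauss (ρ : Representation (ZMod p) H U) (β : LinearMap.BilinForm (ZMod p) U)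
    (hinv : ∀ h x y, β (ρ h x) (ρ h y) = β x y)
    (hrad : ∀ h d, (∀ u, β u d - β (ρ h u) d + (β d u - β (ρ h d) u) = 0) → ρ h d = d) : HasEta ρ := by
  classical
  have := Fintype.ofFinite U
  have hp : p.Prime := Fact.out
  let Q : H → U → ZMod p := fun h u => β u u - β (ρ h u) u
  have hQadd : ∀ h u d, Q h (u + d) =
      Q h u + Q h d + (β u d - β (ρ h u) d + (β d u - β (ρ h d) u)) := fun h u d => by
    simp only [Q, map_add, LinearMap.add_apply]; ring
  have hS0 : ∀ h d, ρ h d = d → ∀ u, β u d - β (ρ h u) d + (β d u - β (ρ h d) u) = 0 := by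
    intro h d hd u
    have : β (ρ h u) d = β u d := by conv_lhs => rw [← hd]; 
                                     rw [hinv]
    rw [this, hd]; ring
  have hQ0 : ∀ h d, ρ h d = d → Q h d = 0 := fun h d hd => by simp [Q, hd]
  let ψ : H → ℂ := fun h => ∑ u, ZMod.stdAddChar (Q h u)
  have hψ : IntFn ψ := by
    let A : Matrix U U ℂ := Matrix.of fun x y => ZMod.stdAddChar (β y y - β y x)
    have hA : IsIntegral ℤ A := isIntegral_matrix (stdAddChar_isIntegral 1) A fun i j =>
      stdAddChar_mem_adjoin _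
    have hc : ∀ h, permHom ρ h * A = A * permHom ρ h := fun h => by
      ext x y
      rw [permHom_mul_apply, mul_permHom_apply]
      show ZMod.stdAddChar (β y y - β y (ρ h⁻¹ x)) = ZMod.stdAddChar (β (ρ h y) (ρ h y) - β (ρ h y) x)
      conv_rhs => rw [hinv, ← rep_apply_inv ρ h x, hinv]
    convert intFn_trace (permHom ρ) hA hc using 1
    funext h
    simp only [Matrix.trace, Matrix.diag_apply, permHom_mul_apply]
    refine Fintype.sum_equiv (Equiv.mk (ρ h) (ρ h⁻¹) (rep_inv_apply ρ h) (rep_apply_inv ρ h)) _ _ fun u => ?_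
    show ZMod.stdAddChar (β u u - β (ρ h u) u) =
      ZMod.stdAddChar (β (ρ h u) (ρ h u) - β (ρ h u) (ρ h⁻¹ (ρ h u)))
    rw [rep_inv_apply, hinv]
  let η : H → ℂ := fun h => ∑ q : U ⧸ fix ρ h, ZMod.stdAddChar (Q h q.out)
  have hψη : ∀ h, ψ h = (cfix ρ h : ℂ) * η h := by
    intro h
    simp only [ψ, η]
    rw [← Finset.sum_fiberwise Finset.univ (fun u : U => (Submodule.Quotient.mk u : U ⧸ fix ρ h)),
      Finset.mul_sum]
    refine Finset.sum_congr rfl fun q _ => ?_
    rw [Finset.sum_congr rfl (g := fun _ => ZMod.stdAddChar (Q h q.out)) fun u hu => ?_,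
      Finset.sum_const, nsmul_eq_mul]
    · congr 2
      rw [cfix, Nat.card_eq_fintype_card, ← Finset.card_univ]
      refine Finset.card_bij' (fun u hu => ⟨u - q.out, ?_⟩) (fun c _ => (c : U) + q.out) ?_ ?_ ?_ ?_
      · rw [Finset.mem_filter] at hu
        rw [← Submodule.Quotient.eq, hu.2]
        exact (Quotient.out_eq q).symm
      · intro u hu; exact Finset.mem_univ _
      · intro c _
        rw [Finset.mem_filter]
        refine ⟨Finset.mem_univ _, ?_⟩
        conv_rhs => rw [← Quotient.out_eq q]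
        exact (Submodule.Quotient.eq _).2 (by simp)
      · intro u hu; simp
      · intro c _; simp
    · rw [Finset.mem_filter] at hu
      have hd : u - q.out ∈ fix ρ h := by
        rw [← Submodule.Quotient.eq, hu.2]
        exact (Quotient.out_eq q).symm
      congr 1
      have := hQadd h q.out (u - q.out)
      rw [add_sub_cancel, hQ0 h _ (mem_fix.1 hd), hS0 h _ (mem_fix.1 hd), add_zero, add_zero] at this
      exact this
  have hnorm : ∀ h, ψ h * conj (ψ h) = (Nat.card U : ℂ) * (cfix ρ h : ℂ) := by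
    intro h
    simp only [ψ, map_sum, Finset.sum_mul_sum]
    rw [Finset.sum_comm, Finset.sum_congr rfl fun u' _ => (Equiv.sum_comp (Equiv.addLeft u')
      fun u => ZMod.stdAddChar (Q h u) * conj (ZMod.stdAddChar (Q h u'))).symm, Finset.sum_comm]
    let φ : U → U →ₗ[ZMod p] ZMod p := fun d =>
      LinearMap.flip β d - (LinearMap.flip β d).comp (ρ h) + (β d - β (ρ h d))
    have e : ∀ u' d : U, ZMod.stdAddChar (Q h (Equiv.addLeft u' d)) * conj (ZMod.stdAddChar (Q h u')) =
        ZMod.stdAddChar (Q h d) * ZMod.stdAddChar (φ d u') := fun u' d => by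
      rw [conj_stdAddChar, ← AddChar.map_add_eq_mul, ← AddChar.map_add_eq_mul]
      congr 1
      rw [Equiv.coe_addLeft, hQadd]
      simp only [φ, LinearMap.add_apply, LinearMap.sub_apply, LinearMap.comp_apply, LinearMap.flip_apply]
      ring
    simp only [e, ← Finset.mul_sum, sum_stdAddChar_linear, mul_ite, mul_zero]
    rw [← Finset.sum_filter, Finset.sum_congr rfl (g := fun _ => (Fintype.card U : ℂ)) fun d hd => ?_,
      Finset.sum_const, nsmul_eq_mul, mul_comm, Nat.card_eq_fintype_card]
    · congr 2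
      rw [cfix, Nat.card_eq_fintype_card, ← Finset.card_univ]
      refine Finset.card_bij' (fun d hd => ⟨d, ?_⟩) (fun c _ => (c : U)) ?_ ?_ ?_ ?_
      · rw [Finset.mem_filter] at hd
        refine mem_fix.2 (hrad h d fun u => ?_)
        have := LinearMap.congr_fun hd.2 u
        simpa [φ] using this
      · intro d hd; exact Finset.mem_univ _
      · intro c _
        rw [Finset.mem_filter]
        refine ⟨Finset.mem_univ _, LinearMap.ext fun u => ?_⟩
        have := hS0 h _ (mem_fix.1 c.2) u
        simpa [φ] using this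
      · intro d hd; rfl
      · intro c _; rfl
    · rw [Finset.mem_filter] at hd
      rw [hQ0 h d (hrad h d fun u => ?_), AddChar.map_zero_eq_one, one_mul]
      have := LinearMap.congr_fun hd.2 u
      simpa [φ] using this
  obtain ⟨K, hK⟩ := exists_pow_intFn ρ (η := η) (by
    have : (fun x => (cfix ρ x : ℂ) * η x) = ψ := funext fun x => (hψη x).symm
    rw [this]; exact hψ)
  refine ⟨K, η, hK, fun h => ?_, fun h => IsIntegral.sum _ fun q _ => stdAddChar_isIntegral _,
    fun h => fixed_mono (dvd_mul_right p _) (Fixed.sum _ _ fun q _ => stdAddChar_fixed _), ?_, ?_⟩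
  · have h1 := hnorm h
    rw [hψη, map_mul, Complex.conj_natCast] at h1
    apply mul_left_cancel₀ (cfix_ne_zero ρ h)
    linear_combination h1
  · have h1 := hψη 1
    have h2 : ψ 1 = (Nat.card U : ℂ) := by
      simp only [ψ, Q, map_one, Module.End.one_apply, sub_self, AddChar.map_zero_eq_one,
        Finset.sum_const, Finset.card_univ, nsmul_eq_mul, mul_one, Nat.card_eq_fintype_card]
    have h3 : cfix ρ 1 = Nat.card U := Nat.card_congr
      (Equiv.subtypeUnivEquiv fun x => mem_fix.2 (by rw [map_one]; rfl))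
    rw [h2, h3] at h1
    exact (mul_eq_left₀ (Nat.cast_ne_zero.2 Nat.card_pos.ne')).1 h1.symm
  · intro h hne M _ hM
    have hroot : ∀ a : ZMod p, Block.redC M (ZMod.stdAddChar a) = 1 := fun a => by
      rw [Block.redC_of_mem (Block.integral_mem_locRing (stdAddChar_isIntegral a))]
      exact Block.red_rootOfUnity_eq_one hM (k := 1) (by
        show ZMod.stdAddChar a ^ p ^ 1 = 1
        rw [pow_one, ← AddChar.map_nsmul_eq_pow, nsmul_eq_mul, ZMod.natCast_self, zero_mul,
          AddChar.map_zero_eq_one])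
    rw [Block.redC_sum _ fun q _ => Block.integral_mem_locRing (stdAddChar_isIntegral _),
      Finset.sum_congr rfl fun q _ => hroot _, Finset.sum_const, nsmul_eq_mul, mul_one,
      Finset.card_univ, ← Block.redC_natCast (M := M),
      Block.redC_eq_zero_iff (natCast_mem (Block.locRing M) _)]
    refine Block.natCast_mem_of_dvd hM ?_
    rw [← Nat.card_eq_fintype_card, Module.natCard_eq_pow_finrank (K := ZMod p), Nat.card_zmod]
    refine dvd_pow_self p fun h0 => hne (LinearMap.ext fun x => ?_)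
    have hsub : Subsingleton (U ⧸ fix ρ h) := Module.finrank_zero_iff.1 h0
    have : x ∈ fix ρ h := (Submodule.Quotient.mk_eq_zero _).1 (Subsingleton.elim _ _)
    exact mem_fix.1 this

end Cfsg.Agent.Lib.KGV
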