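import Cfsg.Agent.Lib.KGV.Basic
import Cfsg.Agent.Lib.CharClifford.Extend
import Cfsg.Agent.Lib.CharClifford.Linear
import Cfsg.Agent.Lib.Char.Induced
import Mathlib.GroupTheory.SemidirectProduct

/-!
# The Weil character of a coprime group preserving an alternating form

The Heisenberg group of a nondegenerate alternating form has an irreducible character which extends
to the semidirect product with a coprime group of isometries; its values on the complement have
squared absolute value the number of fixed points.
-/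

set_option autoImplicit false

open scoped ComplexConjugate

namespace Cfsg.Agent.Lib.KGV

open Cfsg Cfsg.Agent.Lib Cfsg.Agent.Lib.Char Cfsg.Agent.Lib.CharCyclo Cfsg.Agent.Lib.IntClass
  Cfsg.Agent.Lib.CharClifford

universe u v

variable {p : ℕ} [Fact p.Prime]

/-- A Lagrangian subspace. -/
theorem exists_lagrangian {U : Type v} [AddCommGroup U] [Module (ZMod p) U] [Finite U]
    (β : LinearMap.BilinForm (ZMod p) U) (halt : ∀ x, β x x = 0)
    (hnd : ∀ x, (∀ y, β x y = 0) → x = 0) :
    ∃ L : Submodule (ZMod p) U, (∀ x ∈ L, ∀ y ∈ L, β x y = 0) ∧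
      Nat.card U = Nat.card L * Nat.card L ∧ ∀ x, (∀ y ∈ L, β x y = 0) → x ∈ L := by
  have hskew : ∀ x y, β y x = -β x y := fun x y => by
    have h := halt (x + y)
    simp only [map_add, LinearMap.add_apply, halt, zero_add, add_zero] at h
    linear_combination h
  have : Finite (Submodule (ZMod p) U) := Finite.of_injective (fun L => (L : Set U)) SetLike.coe_injective
  obtain ⟨L, hL⟩ := Set.Finite.exists_maximal
    (s := {L : Submodule (ZMod p) U | ∀ x ∈ L, ∀ y ∈ L, β x y = 0}) (Set.toFinite _)
    ⟨⊥, fun x hx y _ => by rw [(Submodule.mem_bot _).1 hx, map_zero, LinearMap.zero_apply]⟩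
  have hiso : ∀ x ∈ L, ∀ y ∈ L, β x y = 0 := hL.prop
  have hmax : ∀ x, (∀ y ∈ L, β x y = 0) → x ∈ L := by
    intro x hx
    have hmem : (L ⊔ (ZMod p) ∙ x) ∈ {L : Submodule (ZMod p) U | ∀ x ∈ L, ∀ y ∈ L, β x y = 0} := by
      intro a ha b hb
      obtain ⟨a₁, ha₁, a₂, ha₂, rfl⟩ := Submodule.mem_sup.1 ha
      obtain ⟨b₁, hb₁, b₂, hb₂, rfl⟩ := Submodule.mem_sup.1 hb
      obtain ⟨r, rfl⟩ := Submodule.mem_span_singleton.1 ha₂
      obtain ⟨s, rfl⟩ := Submodule.mem_span_singleton.1 hb₂
      simp [hiso a₁ ha₁ b₁ hb₁, hx b₁ hb₁, halt, hskew x a₁, hx a₁ ha₁]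
    exact hL.le_of_ge hmem le_sup_left (Submodule.mem_sup_right (Submodule.mem_span_singleton_self x))
  refine ⟨L, hiso, ?_, hmax⟩
  have hnd' : β.Nondegenerate := ⟨hnd, fun y hy => hnd y fun x => by rw [hskew, hy, neg_zero]⟩
  have horth : β.orthogonal L = L := by
    ext x
    rw [LinearMap.BilinForm.mem_orthogonal_iff]
    refine ⟨fun h => hmax x fun y hy => ?_, fun h n hn => hiso n hn x h⟩
    rw [hskew, h y hy, neg_zero]
  have hdim := LinearMap.BilinForm.finrank_orthogonal hnd' L
  rw [horth] at hdim
  have hle := Submodule.finrank_le L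
  rw [Module.natCard_eq_pow_finrank (K := ZMod p) (V := U),
    Module.natCard_eq_pow_finrank (K := ZMod p) (V := L), ← pow_add]
  congr 1
  omega

variable {U : Type v} [AddCommGroup U] [Module (ZMod p) U]

/-- The Heisenberg group of a form. -/
@[ext]
structure Heis (β : LinearMap.BilinForm (ZMod p) U) : Type v where
  /-- vector part -/
  vec : U
  /-- central part -/
  cen : ZMod p

variable {β : LinearMap.BilinForm (ZMod p) U}

noncomputable instance heisMul : Mul (Heis β) :=
  ⟨fun x y => ⟨x.vec + y.vec, x.cen + y.cen + (2 : ZMod p)⁻¹ * β x.vec y.vec⟩⟩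

noncomputable instance heisOne : One (Heis β) := ⟨⟨0, 0⟩⟩

noncomputable instance heisInv : Inv (Heis β) :=
  ⟨fun x => ⟨-x.vec, -x.cen + (2 : ZMod p)⁻¹ * β x.vec x.vec⟩⟩

@[simp] theorem mul_vec (x y : Heis β) : (x * y).vec = x.vec + y.vec := rfl
@[simp] theorem mul_cen (x y : Heis β) :
    (x * y).cen = x.cen + y.cen + (2 : ZMod p)⁻¹ * β x.vec y.vec := rfl
@[simp] theorem one_vec : (1 : Heis β).vec = 0 := rfl
@[simp] theorem one_cen : (1 : Heis β).cen = 0 := rfl
@[simp] theorem inv_vec (x : Heis β) : x⁻¹.vec = -x.vec := rfl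
@[simp] theorem inv_cen (x : Heis β) : x⁻¹.cen = -x.cen + (2 : ZMod p)⁻¹ * β x.vec x.vec := rfl

noncomputable instance heisGroup : Group (Heis β) where
  mul_assoc x y z := by
    ext
    · simp [add_assoc]
    · simp; ring
  one_mul x := by ext <;> simp
  mul_one x := by ext <;> simp
  inv_mul_cancel x := by
    ext
    · simp
    · simp

/-- The underlying pair. -/
def heisEquiv (β : LinearMap.BilinForm (ZMod p) U) : Heis β ≃ U × ZMod p where
  toFun x := (x.vec, x.cen)
  invFun x := ⟨x.1, x.2⟩
  left_inv _ := rfl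
  right_inv _ := rfl

theorem sum_heis [Fintype U] [Fintype (Heis β)] (F : U → ℂ) :
    ∑ x : Heis β, F x.vec = (p : ℂ) * ∑ u : U, F u := by
  rw [← Equiv.sum_comp (heisEquiv β).symm, Fintype.sum_prod_type, Finset.mul_sum]
  exact Finset.sum_congr rfl fun u _ => by
    show ∑ _a : ZMod p, F u = _
    rw [Finset.sum_const, Finset.card_univ, ZMod.card, nsmul_eq_mul]

instance heisFinite [Finite U] : Finite (Heis β) := Finite.of_equiv _ (heisEquiv β).symm

variable {H : Type u} [Group H] [Fintype H]

/-- The action on the Heisenberg group. -/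
noncomputable def heisAut (ρ : Representation (ZMod p) H U)
    (hinv : ∀ h x y, β (ρ h x) (ρ h y) = β x y) : H →* MulAut (Heis β) where
  toFun h :=
    { toFun := fun x => ⟨ρ h x.vec, x.cen⟩
      invFun := fun x => ⟨ρ h⁻¹ x.vec, x.cen⟩
      left_inv := fun x => by ext <;> simp
      right_inv := fun x => by ext <;> simp
      map_mul' := fun x y => by ext <;> simp [hinv] }
  map_one' := by ext <;> simp
  map_mul' a b := by ext <;> simp

omit [Fintype H] in
theorem heisAut_apply (ρ : Representation (ZMod p) H U)
    (hinv : ∀ h x y, β (ρ h x) (ρ h y) = β x y) (h : H) (x : Heis β) :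
    heisAut ρ hinv h x = ⟨ρ h x.vec, x.cen⟩ := rfl

theorem sd_conj {N K : Type*} [Group N] [Group K] {φ : K →* MulAut N} (g : SemidirectProduct N K φ)
    (x : N) : (SemidirectProduct.inl (g.left * φ g.right x * g.left⁻¹) : SemidirectProduct N K φ) =
      g * SemidirectProduct.inl x * g⁻¹ := by
  rw [eq_mul_inv_iff_mul_eq]
  ext <;> simp

theorem sd_comm {N K : Type*} [Group N] [Group K] {φ : K →* MulAut N} {k : K} {x : N} (h : φ k x = x) :
    (SemidirectProduct.inl x : SemidirectProduct N K φ) * SemidirectProduct.inr k =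
      SemidirectProduct.inr k * SemidirectProduct.inl x := by
  ext <;> simp [h]

theorem sd_central {N K : Type*} [Group N] [Group K] {φ : K →* MulAut N} {z : N}
    (h1 : ∀ y, z * y = y * z) (h2 : ∀ k, φ k z = z) (g : SemidirectProduct N K φ) :
    SemidirectProduct.inl z * g = g * SemidirectProduct.inl z := by
  ext <;> simp [h1, h2]

/-- The Weil construction. -/
theorem hasEta_weil [Finite U] (ρ : Representation (ZMod p) H U) (hp2 : p ≠ 2)
    (hcop : ¬ p ∣ Fintype.card H) (halt : ∀ x, β x x = 0) (hnd : ∀ x, (∀ y, β x y = 0) → x = 0)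
    (hinv : ∀ h x y, β (ρ h x) (ρ h y) = β x y) : HasEta ρ := by
  classical
  have hp : p.Prime := Fact.out
  have h2 : (2 : ZMod p) ≠ 0 := by
    intro h
    have := (ZMod.natCast_eq_zero_iff 2 p).1 (by exact_mod_cast h)
    exact hp2 ((Nat.prime_dvd_prime_iff_eq hp Nat.prime_two).1 this)
  have hskew : ∀ x y, β y x = -β x y := fun x y => by
    have h := halt (x + y)
    simp only [map_add, LinearMap.add_apply, halt, zero_add, add_zero] at h
    linear_combination h
  have := Fintype.ofFinite U
  have := Fintype.ofFinite (Heis β)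
  obtain ⟨L, hiso, hcardL, hmax⟩ := exists_lagrangian β halt hnd
  have := Fintype.ofFinite L
  -- the character of the Heisenberg group
  let θ : Heis β → ℂ := fun x => if x.vec = 0 then (Nat.card L : ℂ) * ZMod.stdAddChar x.cen else 0
  let LZ : Subgroup (Heis β) :=
    { carrier := {x | x.vec ∈ L}
      one_mem' := L.zero_mem
      mul_mem' := fun ha hb => L.add_mem ha hb
      inv_mem' := fun ha => L.neg_mem ha }
  have := Fintype.ofFinite LZ
  let lam : LZ →* ℂˣ := MonoidHom.toHomUnits
    { toFun := fun x => ZMod.stdAddChar (x : Heis β).cen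
      map_one' := by simp
      map_mul' := fun x y => by
        simp [hiso _ x.2 _ y.2, AddChar.map_add_eq_mul] }
  have hlam : ∀ x : LZ, (lam x : ℂ) = ZMod.stdAddChar (x : Heis β).cen := fun x => rfl
  have hcardLZ : (Nat.card LZ : ℂ) = (Nat.card L : ℂ) * p := by
    have : Nat.card LZ = Nat.card L * p := by
      refine Eq.trans ?_ (congrArg (fun k => Nat.card L * k) (Nat.card_zmod p))
      rw [← Nat.card_prod]
      exact Nat.card_congr
        { toFun := fun x => (⟨x.1.vec, x.2⟩, x.1.cen)
          invFun := fun x => ⟨⟨x.1.1, x.2⟩, x.1.2⟩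
          left_inv := fun x => rfl
          right_inv := fun x => rfl }
    exact_mod_cast this
  have hL0 : (Nat.card L : ℂ) ≠ 0 := Nat.cast_ne_zero.2 Nat.card_pos.ne'
  have hpC : (p : ℂ) ≠ 0 := natCast_p_ne_zero
  have hind : indFun LZ (fun x => (lam x : ℂ)) = θ := by
    funext g
    by_cases hg : g.vec ∈ L
    · let φ : U →ₗ[ZMod p] ZMod p := β g.vec
      have hterm : ∀ x : Heis β, extendByZero LZ (fun x => (lam x : ℂ)) (x⁻¹ * g * x) =
          ZMod.stdAddChar g.cen * ZMod.stdAddChar (φ x.vec) := by
        intro x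
        have hv : (x⁻¹ * g * x).vec = g.vec := by simp
        have hc : (x⁻¹ * g * x).cen = g.cen + β g.vec x.vec := by
          simp only [mul_cen, inv_cen, inv_vec, mul_vec, map_add, map_neg, LinearMap.add_apply,
            LinearMap.neg_apply, halt, hskew g.vec x.vec]
          have : (2 : ZMod p)⁻¹ * 2 = 1 := inv_mul_cancel₀ h2
          linear_combination (β g.vec x.vec) * this
        rw [extendByZero_mem LZ _ (show (x⁻¹ * g * x) ∈ LZ by show _ ∈ L; rw [hv]; exact hg), hlam,
          hc, AddChar.map_add_eq_mul]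
      simp only [indFun, hterm, ← Finset.mul_sum]
      rw [← Equiv.sum_comp (heisEquiv β).symm, Fintype.sum_prod_type]
      simp only [heisEquiv, Equiv.coe_fn_symm_mk, Finset.sum_const, Finset.card_univ, ZMod.card,
        nsmul_eq_mul, ← Finset.mul_sum, sum_stdAddChar_linear]
      rw [hcardLZ]
      show _ = if g.vec = 0 then _ else _
      by_cases h0 : g.vec = 0
      · have hφ : φ = 0 := by simp [φ, h0]
        rw [if_pos h0, if_pos hφ, ← Nat.card_eq_fintype_card, hcardL, Nat.cast_mul]
        field_simp
      · have hφ : φ ≠ 0 := fun h => h0 (hnd _ fun y => LinearMap.congr_fun h y)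
        rw [if_neg h0, if_neg hφ]
        simp
    · simp only [indFun]
      rw [Finset.sum_eq_zero fun x _ => extendByZero_not_mem LZ _ fun h => hg (by
        have : (x⁻¹ * g * x).vec ∈ L := h
        simpa using this), mul_zero]
      show (0 : ℂ) = if g.vec = 0 then _ else _
      rw [if_neg fun h : g.vec = 0 => hg (by rw [h]; exact L.zero_mem)]
  have hconj : ∀ a : ZMod p, ZMod.stdAddChar a * conj (ZMod.stdAddChar a) = 1 := fun a => by
    rw [conj_stdAddChar, ← AddChar.map_add_eq_mul, add_neg_cancel, AddChar.map_zero_eq_one]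
  have hθirr : IsIrrCharacter (Heis β) θ := by
    refine isIrrCharacter_of_norm_one
      (hind ▸ isCharacter_indFun LZ (isCharacter_of_isIrr (isIrrCharacter_linear lam))) ?_
    simp only [classInner]
    have hterm : ∀ x : Heis β, θ x * conj (θ x) =
        if x.vec = 0 then (Nat.card L : ℂ) * (Nat.card L : ℂ) else 0 := fun x => by
      simp only [θ]
      split_ifs with h
      · rw [map_mul, Complex.conj_natCast, mul_mul_mul_comm, hconj, mul_one]
      · simp
    rw [Finset.sum_congr rfl fun x _ => hterm x,
      sum_heis (fun u : U => if u = 0 then (Nat.card L : ℂ) * (Nat.card L : ℂ) else 0),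
      Nat.card_congr (heisEquiv β), Nat.card_prod, Nat.card_zmod, hcardL]
    simp only [Finset.sum_ite_eq', Finset.mem_univ, if_true]
    push_cast
    field_simp
  -- the extension
  let φH := heisAut ρ hinv
  let G := SemidirectProduct (Heis β) H φH
  have : Finite G := Finite.of_equiv _ SemidirectProduct.equivProd.symm
  have := Fintype.ofFinite G
  let N : Subgroup G := (SemidirectProduct.inl : Heis β →* G).range
  have hNker : N = (SemidirectProduct.rightHom : G →* H).ker := SemidirectProduct.range_inl_eq_ker_rightHom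
  have hNn : N.Normal := by rw [hNker]; infer_instance
  have := Fintype.ofFinite N
  let e : Heis β ≃* N := MonoidHom.ofInjective SemidirectProduct.inl_injective
  have he : ∀ x, ((e x : N) : G) = SemidirectProduct.inl x := fun x => rfl
  let θN : N → ℂ := θ ∘ e.symm
  have hθN : IsIrrCharacter N θN := isIrrCharacter_comp_equiv e.symm hθirr
  have hθaut : ∀ h x, θ (φH h x) = θ x := fun h x => by
    simp only [θ, φH, heisAut_apply]
    refine if_congr ⟨fun h0 => ?_, fun h0 => by rw [h0, map_zero]⟩ rfl rfl
    rw [← rep_inv_apply ρ h x.vec, h0, map_zero]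
  have hθinv : ∀ g : G, conjChar N g θN = θN := by
    intro g
    funext n
    obtain ⟨x, rfl⟩ := e.surjective n
    have hval : (e (g.left * φH g.right x * g.left⁻¹) : G) = g * (e x : G) * g⁻¹ := by
      rw [he, he]
      exact sd_conj g x
    show θ (e.symm _) = θ (e.symm (e x))
    rw [show (⟨g * (e x : G) * g⁻¹, hNn.conj_mem _ (e x).2 g⟩ : N) = e (g.left * φH g.right x * g.left⁻¹)
      from Subtype.ext hval.symm, e.symm_apply_apply, e.symm_apply_apply,
      isClassFunction_of_isIrr hθirr _ g.left, hθaut]
  have hidx : N.index = Fintype.card H := by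
    rw [hNker, Subgroup.index_ker, MonoidHom.range_eq_top.2 SemidirectProduct.rightHom_surjective,
      Subgroup.card_top, Nat.card_eq_fintype_card]
  have hcardN : ∀ k : ℕ, k ∣ Nat.card N → Nat.Coprime (Fintype.card H) k := by
    intro k hk
    obtain ⟨i, hi⟩ : ∃ i, Nat.card N = p ^ i := ⟨Module.finrank (ZMod p) U + 1, by
      rw [← Nat.card_congr e.toEquiv, Nat.card_congr (heisEquiv β), Nat.card_prod, Nat.card_zmod,
        Module.natCard_eq_pow_finrank (K := ZMod p), Nat.card_zmod, pow_succ]⟩
    exact (((hp.coprime_iff_not_dvd.2 hcop).pow_left i).coprime_dvd_left (hi ▸ hk)).symm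
  obtain ⟨n₀, ρ₀, hρ₀, hρ₀θ, -, hdet⟩ := exists_detHom hθN
  have hdinv : ∀ (g : G) (n : N),
      detHom ρ₀ ⟨g * n * g⁻¹, hNn.conj_mem (n : G) n.2 g⟩ = detHom ρ₀ n := by
    intro g n
    have := hρ₀
    let ρ₁ : Representation ℂ N (Fin n₀ → ℂ) := ρ₀.comp (MulAut.conjNormal g : MulAut N).toMonoidHom
    have hc : ρ₁.character = θN := by
      rw [show ρ₁.character = conjChar N g θN by
        rw [conjChar_eq_comp, ← hρ₀θ]; rfl, hθinv g]
    have : ρ₁.IsIrreducible := isIrreducible_of_isIrrCharacter ρ₁ (hc ▸ hθN)
    apply Units.ext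
    rw [← hdet n, ← hc, detChar_character ρ₁, detHom_apply]
    exact congrArg (fun z => LinearMap.det (ρ₀ z)) (Subtype.ext (by simp))
  obtain ⟨μ, hμ, -, -⟩ := exists_extension_coprime (detHom ρ₀) hdinv (by
    rw [hidx]
    exact hcardN _ (orderOf_dvd_of_pow_eq_one (MonoidHom.ext fun n => by
      rw [MonoidHom.pow_apply, ← map_pow, pow_card_eq_one', map_one]; rfl)))
  have hθ1 : θ 1 = (Nat.card L : ℂ) := by simp [θ]
  obtain ⟨χ, hχ, hχN⟩ := extends_of_det hθN hθinv (Nat.card L) (by
      show θ (e.symm 1) = _
      rw [map_one, hθ1])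
    (by
      rw [hidx]
      refine hcardN _ ?_
      rw [← Nat.card_congr e.toEquiv, Nat.card_congr (heisEquiv β), Nat.card_prod, hcardL, mul_assoc]
      exact dvd_mul_right _ _)
    μ (fun n => by rw [hμ n, hdet n])
  have hχinl : ∀ x, χ (SemidirectProduct.inl x) = θ x := fun x => by
    have := hχN (e x)
    rw [he] at this
    rw [this]
    show θ (e.symm (e x)) = θ x
    rw [e.symm_apply_apply]
  let W : H → ℂ := fun h => χ (SemidirectProduct.inr h)
  have hW : IsCharacter H W := isCharacter_comp (isCharacter_of_isIrr hχ) SemidirectProduct.inr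
  obtain ⟨m, σ, hσ, hσχ⟩ := hχ
  have hχc : IsCharacter G χ := hσχ ▸ isCharacter_character σ
  -- the absolute values
  have hWnorm : ∀ h, W h * conj (W h) = (cfix ρ h : ℂ) := by
    intro h
    let σN : Representation ℂ (Heis β) (Fin m → ℂ) := σ.comp SemidirectProduct.inl
    have hσNc : σN.character = θ := funext fun x => by
      rw [← hχinl, ← hσχ]; rfl
    have : σN.IsIrreducible := isIrreducible_of_isIrrCharacter σN (hσNc ▸ hθirr)
    have hm : (m : ℂ) = (Nat.card L : ℂ) := by
      have := congrFun hσNc 1
      rw [Representation.char_one, Module.finrank_fin_fun, hθ1] at this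
      exact this
    let X := σ (SemidirectProduct.inr h⁻¹)
    let S : Module.End ℂ (Fin m → ℂ) := ∑ x : Heis β, σN x * X * σN x⁻¹
    obtain ⟨c, hc⟩ := exists_smul_of_commute σN S fun g => by
      simp only [S, Finset.sum_mul, Finset.mul_sum]
      refine (Fintype.sum_equiv (Equiv.mulLeft g) _ _ fun x => ?_).symm
      simp only [Equiv.coe_mulLeft, mul_inv_rev, map_mul]
      simp only [mul_assoc]
      rw [← map_mul σN g⁻¹ g, inv_mul_cancel, map_one, mul_one]
    have htr1 : LinearMap.trace ℂ _ S = (Fintype.card (Heis β) : ℂ) * W h⁻¹ := by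
      simp only [S, map_sum]
      rw [Finset.sum_congr rfl fun x _ => by
        rw [LinearMap.trace_mul_comm, ← mul_assoc, ← map_mul, inv_mul_cancel, map_one, one_mul],
        Finset.sum_const, Finset.card_univ, nsmul_eq_mul]
      congr 1
      show _ = χ _
      rw [← hσχ]; rfl
    have htr1' : c * (Nat.card L : ℂ) = (Fintype.card (Heis β) : ℂ) * W h⁻¹ := by
      rw [← htr1, hc, map_smul, LinearMap.trace_one, Module.finrank_fin_fun, smul_eq_mul, hm]
    have hterm : ∀ x : Heis β, LinearMap.trace ℂ _ (σ (SemidirectProduct.inr h) * (σN x * X * σN x⁻¹)) =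
        θ (φH h x * x⁻¹) := fun x => by
      have e1 : (SemidirectProduct.inl (φH h x * x⁻¹) : G) =
          SemidirectProduct.inr h * (SemidirectProduct.inl x * SemidirectProduct.inr h⁻¹ *
            SemidirectProduct.inl x⁻¹) := by
        rw [map_mul, SemidirectProduct.inl_aut]
        simp only [map_inv, mul_assoc]
      rw [← hχinl, e1, ← hσχ, Representation.character]
      simp only [map_mul]
      rfl
    have htr2 : c * W h = ∑ x : Heis β, θ (φH h x * x⁻¹) := by
      rw [← Finset.sum_congr rfl fun x _ => hterm x, ← map_sum, ← Finset.mul_sum]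
      show _ = LinearMap.trace ℂ _ (σ (SemidirectProduct.inr h) * S)
      rw [hc, mul_smul_comm, mul_one, map_smul, smul_eq_mul]
      congr 1
      show χ _ = _
      rw [← hσχ]; rfl
    have hsum : ∑ x : Heis β, θ (φH h x * x⁻¹) = (p : ℂ) * (cfix ρ h : ℂ) * (Nat.card L : ℂ) := by
      have hpt : ∀ x : Heis β, θ (φH h x * x⁻¹) = if ρ h x.vec = x.vec then (Nat.card L : ℂ) else 0 := by
        intro x
        simp only [θ, φH, heisAut_apply, mul_vec, inv_vec, mul_cen, inv_cen, ← sub_eq_add_neg, sub_eq_zero]
        split_ifs with h1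
        · rw [h1, map_neg, halt]
          simp
        · rfl
      rw [Finset.sum_congr rfl fun x _ => hpt x,
        sum_heis (fun u : U => if ρ h u = u then (Nat.card L : ℂ) else 0)]
      simp only [← Finset.sum_filter, Finset.sum_const, nsmul_eq_mul]
      rw [cfix, Nat.card_eq_fintype_card (α := ↥(fix ρ h)), ← Fintype.card_subtype, mul_assoc]
      congr 2
      exact_mod_cast Fintype.card_congr (Equiv.subtypeEquivRight fun x => mem_fix.symm)
    have hE : (Fintype.card (Heis β) : ℂ) = (p : ℂ) * ((Nat.card L : ℂ) * (Nat.card L : ℂ)) := by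
      rw [← Nat.card_eq_fintype_card, Nat.card_congr (heisEquiv β), Nat.card_prod, Nat.card_zmod, hcardL]
      push_cast
      ring
    rw [hE] at htr1'
    rw [hsum] at htr2
    have hcW : conj (W h) = W h⁻¹ := (char_inv hW h).symm
    rw [hcW]
    apply mul_left_cancel₀ (mul_ne_zero hpC hL0)
    have hc' : c = (p : ℂ) * (Nat.card L : ℂ) * W h⁻¹ := by
      apply mul_right_cancel₀ hL0
      linear_combination htr1'
    rw [hc'] at htr2
    linear_combination htr2
  -- divisibility at each element
  have hdiv : ∀ h, ∃ (m n : ℕ) (z : ℂ), cfix ρ h = p ^ m * p ^ m ∧ Nat.card L = p ^ n ∧ m ≤ n ∧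
      (ρ h ≠ 1 → m < n) ∧ IsIntegral ℤ z ∧ W h = (p : ℂ) ^ m * z := by
    intro h
    let C := fix ρ h
    let βC : LinearMap.BilinForm (ZMod p) C := β.compl₁₂ C.subtype C.subtype
    have hndC : ∀ x, (∀ y, βC x y = 0) → x = 0 := by
      intro x hx
      refine Subtype.ext (hnd _ fun w => ?_)
      set k := orderOf h
      let av : U := ∑ i ∈ Finset.range k, ρ (h ^ i) w
      have hav : ρ h av = av := by
        simp only [av, map_sum, ← Module.End.mul_apply, ← map_mul, ← pow_succ']
        have h1 := Finset.sum_range_succ' (fun i => ρ (h ^ i) w) k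
        have h2 := Finset.sum_range_succ (fun i => ρ (h ^ i) w) k
        rw [h1, pow_orderOf_eq_one, pow_zero] at h2
        exact add_right_cancel h2
      have h1 : ∀ i, β (x : U) (ρ (h ^ i) w) = β (x : U) w := fun i => by
        induction i with
        | zero => simp
        | succ i ih =>
          rw [pow_succ', map_mul, Module.End.mul_apply]
          conv_lhs => rw [← mem_fix.1 x.2]
          rw [hinv, ih]
      have h3 : β (x : U) av = (k : ZMod p) * β (x : U) w := by
        simp only [av, map_sum, h1, Finset.sum_const, Finset.card_range, nsmul_eq_mul]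
      have h4 : (k : ZMod p) ≠ 0 := by
        rw [Ne, ZMod.natCast_eq_zero_iff]
        exact fun hd => hcop (hd.trans orderOf_dvd_card)
      have h5 : β (x : U) av = 0 := hx ⟨av, mem_fix.2 hav⟩
      rw [h3] at h5
      exact (mul_eq_zero.1 h5).resolve_left h4
    obtain ⟨L', hiso', hcardL', hmax'⟩ := exists_lagrangian βC (fun x => halt _) hndC
    have := Fintype.ofFinite L'
    let S : Subgroup G :=
      { carrier := {g | ∃ u : L', g = SemidirectProduct.inl ⟨((u : C) : U), 0⟩}
        one_mem' := ⟨0, by ext <;> simp⟩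
        mul_mem' := by
          rintro _ _ ⟨u, rfl⟩ ⟨u', rfl⟩
          refine ⟨u + u', ?_⟩
          rw [← map_mul]
          congr 1
          ext
          · simp
          · have : β ((u : C) : U) ((u' : C) : U) = 0 := hiso' _ u.2 _ u'.2
            simp [this]
        inv_mem' := by
          rintro _ ⟨u, rfl⟩
          refine ⟨-u, ?_⟩
          rw [← map_inv]
          congr 1
          ext <;> simp [halt] }
    have := Fintype.ofFinite S
    have hcomm : ∀ s ∈ S, SemidirectProduct.inr h * s = s * SemidirectProduct.inr h := by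
      rintro _ ⟨u, rfl⟩
      refine (sd_comm ?_).symm
      show heisAut ρ hinv h _ = _
      rw [heisAut_apply]
      ext <;> simp [mem_fix.1 (u : C).2]
    have hzero : ∀ u : L', u ≠ 0 →
        χ (SemidirectProduct.inr h * SemidirectProduct.inl ⟨((u : C) : U), 0⟩) = 0 := by
      intro u hu
      obtain ⟨w, hw⟩ : ∃ w : C, βC w (u : C) ≠ 0 := by
        by_contra hall
        push Not at hall
        refine hu (Subtype.ext (hndC _ fun y => ?_))
        show β ((u : C) : U) (y : U) = 0
        rw [hskew, show β (y : U) ((u : C) : U) = 0 from hall y, neg_zero]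
      have hw' : β (w : U) ((u : C) : U) ≠ 0 := hw
      set a : Heis β := ⟨(w : U), 0⟩ with ha
      set b : Heis β := ⟨((u : C) : U), 0⟩ with hb
      set z : Heis β := ⟨0, β (w : U) ((u : C) : U)⟩ with hz
      have hab : a * b * a⁻¹ = z * b := by
        have : (2 : ZMod p)⁻¹ * 2 = 1 := inv_mul_cancel₀ h2
        ext
        · simp [ha, hb, hz]
        · simp only [ha, hb, hz, mul_cen, mul_vec, inv_cen, inv_vec, map_add, map_neg, map_zero,
            LinearMap.add_apply, LinearMap.zero_apply, halt, hskew (w : U) ((u : C) : U)]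
          linear_combination (β (w : U) ((u : C) : U)) * this
      have hcomma : (SemidirectProduct.inl a : G) * SemidirectProduct.inr h =
          SemidirectProduct.inr h * SemidirectProduct.inl a := by
        refine sd_comm ?_
        show heisAut ρ hinv h a = a
        rw [heisAut_apply]
        ext <;> simp [ha, mem_fix.1 w.2]
      have hconjG : (SemidirectProduct.inl a : G) * (SemidirectProduct.inr h * SemidirectProduct.inl b) *
          (SemidirectProduct.inl a)⁻¹ = SemidirectProduct.inl z *
            (SemidirectProduct.inr h * SemidirectProduct.inl b) := by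
        have hz' : (SemidirectProduct.inl z : G) * SemidirectProduct.inr h =
            SemidirectProduct.inr h * SemidirectProduct.inl z := by
          refine sd_comm ?_
          show heisAut ρ hinv h z = z
          rw [heisAut_apply]
          ext <;> simp [hz]
        rw [← mul_assoc, ← mul_assoc, hcomma, hz']
        simp only [mul_assoc]
        rw [← map_inv, ← map_mul, ← map_mul, ← map_mul, ← mul_assoc a b, hab]
      have hzc : ∀ g : G, σ (SemidirectProduct.inl z) * σ g = σ g * σ (SemidirectProduct.inl z) := by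
        intro g
        rw [← map_mul, ← map_mul]
        congr 1
        refine sd_central (fun y => ?_) (fun k => ?_) g
        · ext <;> simp [hz, add_comm]
        · show heisAut ρ hinv k z = z
          rw [heisAut_apply]
          ext <;> simp [hz]
      obtain ⟨c, hc⟩ := exists_smul_of_commute σ (σ (SemidirectProduct.inl z)) hzc
      have hcval : c = ZMod.stdAddChar z.cen := by
        have h6 := congrArg (LinearMap.trace ℂ _) hc
        rw [map_smul, LinearMap.trace_one, Module.finrank_fin_fun, smul_eq_mul] at h6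
        have h7 : LinearMap.trace ℂ _ (σ (SemidirectProduct.inl z)) = θ z := by
          rw [← hχinl, ← hσχ]; rfl
        have hm : (m : ℂ) = (Nat.card L : ℂ) := by
          have h8 := hχinl 1
          rw [map_one, hθ1, ← hσχ, Representation.char_one, Module.finrank_fin_fun] at h8
          exact h8
        rw [h7, hm] at h6
        simp only [θ, hz, if_true] at h6
        apply mul_right_cancel₀ hL0
        linear_combination -h6
      have h6 := isClassFunction_of_isCharacter hχc
        (SemidirectProduct.inr h * SemidirectProduct.inl b) (SemidirectProduct.inl a)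
      rw [hconjG] at h6
      have h7 : χ (SemidirectProduct.inl z * (SemidirectProduct.inr h * SemidirectProduct.inl b)) =
          c * χ (SemidirectProduct.inr h * SemidirectProduct.inl b) := by
        rw [← hσχ, Representation.character, map_mul, hc, smul_mul_assoc, one_mul, map_smul, smul_eq_mul]
        rfl
      rw [h7] at h6
      by_contra hne
      have hc1 : c = 1 := (mul_eq_right₀ hne).1 h6
      rw [hcval, ← AddChar.map_zero_eq_one (ZMod.stdAddChar (N := p))] at hc1
      exact hw' (ZMod.injective_stdAddChar hc1)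
    have hint := CharCyclo.isIntegral_classInner_shift S (SemidirectProduct.inr h) hcomm hχc
      (isCharacter_one (G := S))
    have hcardS : Nat.card S = Nat.card L' := Nat.card_congr (Equiv.ofBijective
      (fun u : L' => (⟨SemidirectProduct.inl ⟨((u : C) : U), 0⟩, u, rfl⟩ : S))
      ⟨fun u u' huu => Subtype.ext (Subtype.ext (congrArg Heis.vec
          (SemidirectProduct.inl_injective (congrArg Subtype.val huu)))),
        fun s => ⟨s.2.choose, Subtype.ext s.2.choose_spec.symm⟩⟩).symm
    have hval : classInner (fun s : S => χ ((SemidirectProduct.inr h : G) * (s : G))) (fun _ => 1) =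
        (Nat.card L' : ℂ)⁻¹ * W h := by
      simp only [classInner, map_one, mul_one, hcardS]
      congr 1
      rw [Finset.sum_eq_single 1]
      · simp [W]
      · rintro ⟨s, hs⟩ _ hne
        obtain ⟨u, hu'⟩ := id hs
        show χ ((SemidirectProduct.inr h : G) * s) = 0
        rw [hu']
        refine hzero u fun hu => hne (Subtype.ext ?_)
        show s = 1
        rw [hu', hu]
        ext <;> simp
      · simp
    rw [hval] at hint
    obtain ⟨i, hi⟩ : ∃ i, Nat.card L' = p ^ i := ⟨_, by
      rw [Module.natCard_eq_pow_finrank (K := ZMod p), Nat.card_zmod]⟩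
    obtain ⟨j, hj⟩ : ∃ j, Nat.card L = p ^ j := ⟨_, by
      rw [Module.natCard_eq_pow_finrank (K := ZMod p), Nat.card_zmod]⟩
    have hC2 : cfix ρ h = p ^ i * p ^ i := by rw [← hi]; exact hcardL'
    have hU2 : Nat.card U = p ^ j * p ^ j := by rw [← hj]; exact hcardL
    have hle : p ^ i * p ^ i ≤ p ^ j * p ^ j := by
      rw [← hC2, ← hU2]; exact Nat.card_le_card_of_injective _ (fix ρ h).injective_subtype
    rw [← pow_add, ← pow_add, Nat.pow_le_pow_iff_right hp.one_lt] at hle
    refine ⟨i, j, (Nat.card L' : ℂ)⁻¹ * W h, hC2, hj, by omega, fun hne => ?_, hint, ?_⟩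
    · by_contra hge
      apply hne
      have heq : Nat.card (fix ρ h) = Nat.card U := by
        rw [show Nat.card (fix ρ h) = p ^ i * p ^ i from hC2, hU2, show i = j by omega]
      rw [Module.natCard_eq_pow_finrank (K := ZMod p) (V := fix ρ h),
        Module.natCard_eq_pow_finrank (K := ZMod p) (V := U), Nat.card_zmod] at heq
      have htop : fix ρ h = ⊤ :=
        Submodule.eq_top_of_finrank_eq (Nat.pow_right_injective hp.two_le heq)
      exact LinearMap.ext fun x => mem_fix.1 (htop ▸ (Submodule.mem_top : x ∈ (⊤ : Submodule (ZMod p) U)))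
    · rw [hi, Nat.cast_pow, ← mul_assoc, mul_inv_cancel₀ (pow_ne_zero _ hpC), one_mul]
  let η : H → ℂ := fun h => (Nat.card L : ℂ) * W h * (cfix ρ h : ℂ)⁻¹
  obtain ⟨K, hK⟩ := exists_pow_intFn ρ (η := η) (by
    have : (fun x => (cfix ρ x : ℂ) * η x) = (Nat.card L : ℂ) • W := funext fun x => by
      simp only [η, Pi.smul_apply, smul_eq_mul]
      field_simp [cfix_ne_zero ρ x]
    rw [this]
    exact (IntFn.of_isCharacter hW).smul (IntClass.isIntegral_natCast _))
  have hform : ∀ h, ∃ (m n : ℕ) (z : ℂ), m ≤ n ∧ (ρ h ≠ 1 → m < n) ∧ IsIntegral ℤ z ∧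
      η h = ((p ^ (n - m) : ℕ) : ℂ) * z := by
    intro h
    obtain ⟨m, n, z, hC, hL, hmn, hlt, hz, hWz⟩ := hdiv h
    refine ⟨m, n, z, hmn, hlt, hz, ?_⟩
    simp only [η]
    rw [hC, hL, hWz]
    have : p ^ n = p ^ (n - m) * p ^ m := by rw [← pow_add, Nat.sub_add_cancel hmn]
    rw [this]
    push_cast
    field_simp [hpC]
  refine ⟨K, η, hK, fun h => ?_, fun h => ?_, fun h => ?_, ?_, fun h hne M _ hM => ?_⟩
  · simp only [η, map_mul, Complex.conj_natCast, map_inv₀]
    have h1 := hWnorm h
    rw [hcardL, Nat.cast_mul]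
    field_simp [cfix_ne_zero ρ h]
    linear_combination h1
  · obtain ⟨m, n, z, -, -, hz, he⟩ := hform h
    rw [he]
    exact (IntClass.isIntegral_natCast _).mul hz
  · refine ((fixed_natCast _ _).mul ?_).mul (fixed_natCast _ _).inv
    exact fixed_mono (dvd_mul_left _ p) (fixed_char hW h)
  · have h1 : W 1 = (Nat.card L : ℂ) := by
      show χ (SemidirectProduct.inr 1) = _
      rw [map_one, ← map_one (SemidirectProduct.inl : Heis β →* G), hχinl, hθ1]
    have h3 : cfix ρ 1 = Nat.card U := Nat.card_congr
      (Equiv.subtypeUnivEquiv fun x => mem_fix.2 (by rw [map_one]; rfl))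
    simp only [η]
    rw [h1, h3, hcardL, Nat.cast_mul]
    field_simp
  · obtain ⟨m, n, z, -, hlt, hz, he⟩ := hform h
    rw [he, Block.redC_mul (natCast_mem (Block.locRing M) _) (Block.integral_mem_locRing hz),
      (Block.redC_eq_zero_iff (natCast_mem (Block.locRing M) _)).2
        (Block.natCast_mem_of_dvd hM (dvd_pow_self p (by have := hlt hne; omega))), zero_mul]

end Cfsg.Agent.Lib.KGV
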